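import Cfsg.Agent.Lib.Helper43.PF.Defs

set_option autoImplicit false
set_option linter.unusedSectionVars false

/-!
Plus type: class splitting of a field automorphism, the case with one class.
-/

namespace Cfsg.Agent.Lib.Helper71.PF

open Matrix QuadraticMap Module Cfsg.Agent.Lib.Helper13.OOut Cfsg.Agent.Lib.Helper43.PA
  Cfsg.Agent.Lib.Helper43.PO Cfsg.Agent.Lib.Helper44 Cfsg.Agent.Lib.Helper43.PF

universe u v

variable {F : Type u} [Field F] {F₀ : Type v} [Field F₀] {i₀ : F₀ →+* F}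

/-- `SO(F) = Ω(F) SO(F₀)` in odd degree. -/
theorem plus_SO_cover [Fintype F] [Fintype F₀] (m : ℕ) (hm : 3 ≤ m) (σ : F ≃+* F)
    (hι : ∀ x, σ x = x ↔ ∃ y, i₀ y = x) (h2 : (2 : F) ≠ 0) (hodd : Odd (orderOf σ))
    (h' : ↥(Cfsg.isometryGroup F ⇑(plusQF m F)))
    (hh : h' ∈ Cfsg.specialIsometryGroup F ⇑(plusQF m F)) :
    ∃ e₀ ∈ SP F₀ m hm,
      ofO _ h' * mapSim (isRat_plus i₀ m) e₀ ∈ Oms (plusQF m F) := by
  have hQ := plusQF_nondeg m F
  have hn := hn5 m hm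
  have h2₀ : (2 : F₀) ≠ 0 := fun h => h2 ((two_iff i₀).1 h)
  by_cases hΩ : h' ∈ Cfsg.Omega F ⇑(plusQF m F)
  · exact ⟨1, one_mem _, by rw [map_one, mul_one]; exact ofO_mem_Oms.2 hΩ⟩
  obtain ⟨η, hη⟩ := exists_nonsquare_of_two_ne h2₀
  have hη0 : η ≠ 0 := by rintro rfl; exact hη ⟨0, by simp⟩
  let i₁ : Fin m := ⟨0, by omega⟩
  let a : Fin m ⊕ Fin m → F₀ :=
    Pi.single (Sum.inl i₁) 1 + Pi.single (Sum.inr i₁) 1
  let b : Fin m ⊕ Fin m → F₀ :=
    Pi.single (Sum.inl i₁) 1 + Pi.single (Sum.inr i₁) η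
  have ha : plusQF m F₀ a = 1 := by
    rw [plusQF_apply]
    simp [a, Pi.single_apply]
  have hb : plusQF m F₀ b = η := by
    rw [plusQF_apply]
    simp [b, Pi.single_apply]
  let s : ↥(Cfsg.isometryGroup F₀ ⇑(plusQF m F₀)) := reflElt _ a * reflElt _ b
  have hs : ((s : GL (Fin m ⊕ Fin m) F₀) : Matrix _ _ F₀) =
      ([a, b].map (fun v => Cfsg.reflectionMatrix ⇑(plusQF m F₀) v)).prod := by
    simp [s, reflElt_coe]
  have hvs : ∀ v ∈ [a, b], plusQF m F₀ v ≠ 0 := by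
    intro v hv
    simp only [List.mem_cons, List.not_mem_nil, or_false] at hv
    rcases hv with rfl | rfl
    · rw [ha]; exact one_ne_zero
    · rw [hb]; exact hη0
  have hsdet : s ∈ Cfsg.specialIsometryGroup F₀ ⇑(plusQF m F₀) := by
    rw [mem_specialIsometryGroup, det_of_prod _ s [a, b] hvs hs]
    simp
  have hsF : mapO (isRat_plus i₀ m) s ∈
      Cfsg.specialIsometryGroup F ⇑(plusQF m F) := by
    rw [mem_specialIsometryGroup]
    have : (mapO (isRat_plus i₀ m) s).1.1.det = i₀ (s.1.1.det) := by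
      rw [RingHom.map_det]; rfl
    rw [this, mem_specialIsometryGroup.1 hsdet, map_one]
  have hsΩ : mapO (isRat_plus i₀ m) s ∉ Cfsg.Omega F ⇑(plusQF m F) := by
    rw [mapO_mem_Omega_iff (isRat_plus i₀ m) hQ (Or.inr (by omega)) s [a, b] hvs hs]
    rintro ⟨-, h3⟩
    apply hη
    apply isSquare_of_odd hι hodd
    simpa [ha, hb] using h3
  refine ⟨ofO _ s, SO_le_SS h2₀ _ _ _ s hsdet, ?_⟩
  rw [mapSim_ofO, ← map_mul, ofO_mem_Oms]
  exact (mul_mem_iff_of_relIndex_two (index_Omega _ hQ (Or.inr (by omega)) (by omega)) hh hsF).2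
    (by tauto)

theorem plus_count_one [Fintype F] [Fintype F₀] (m : ℕ) (hm : 3 ≤ m) (σ : F ≃+* F)
    (hι : ∀ x, σ x = x ↔ ∃ y, i₀ y = x) (h : Odd (orderOf σ) ∨ (2 : F) = 0) :
    Cfsg.splitClassCount (DPl F m hm) (Cfsg.Inn _) (phiP m σ) = 1 := by
  have hQ := plusQF_nondeg m F
  have hn := hn5 m hm
  have hex := exists_ne_zero _ hQ hn
  have hle : Cfsg.Inn (Cfsg.POmega F ⇑(plusQF m F)) ≤ DPl F m hm := inn_le_DPl m hm
  rw [splitClassCount_eq_relIndex _ _ hle, Subgroup.relIndex_eq_one]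
  intro d hd
  by_cases h2 : (2 : F) = 0
  · apply Subgroup.mem_sup_left
    have : DPl F m hm = Cfsg.Inn _ := SS_map_eq_inn _ h2 _ _
    rwa [this] at hd
  have hodd : Odd (orderOf σ) := h.resolve_right h2
  have h2₀ : (2 : F₀) ≠ 0 := fun h => h2 ((two_iff i₀).1 h)
  obtain ⟨g, hg, rfl⟩ := hd
  obtain ⟨μ₀, ν, hμ⟩ := exists_sq_decomp h2 hι hodd (multF _ g)
  obtain ⟨δ₀, hδmat, hδm⟩ := plus_exists_simil' (F := F₀) m (by omega) μ₀
  have hδS : δ₀ ∈ SP F₀ m hm := by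
    unfold SP
    rw [mem_SS_odd h2₀, hδmat, det_diag_plus, hδm]
  set hr := isRat_plus i₀ m with hhr
  have hg₁S := (mapSim_mem_SS_iff hr hQ hn m δ₀).2 hδS
  set k := scalSimil (plusQF m F) ν * mapSim hr δ₀ with hk
  have hkS : k ∈ SS _ hex m := mul_mem (scal_mem_SS _ hQ hn (plus_card m) ν) hg₁S
  have hkm : multF _ k = multF _ g := by
    have h1 : multHom _ hex k = multHom _ hex (scalSimil _ ν) * multHom _ hex (mapSim hr δ₀) :=
      map_mul _ _ _
    rw [multHom_apply, multHom_apply, multHom_apply, multF_mapSim hr hex, hδm,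
      multF_unique hex (scalSimil _ ν) (ν * ν) (fun w => by
        rw [scalSimil_coe, Matrix.smul_mulVec, Matrix.one_mulVec, QuadraticMap.map_smul]
        simp)] at h1
    rw [h1, hμ, mul_comm]
  have hhS : g * k⁻¹ ∈ SS _ hex m := mul_mem hg (inv_mem hkS)
  have hhm : multF _ (g * k⁻¹) = 1 := by
    have h1 : multHom _ hex (g * k⁻¹) = multHom _ hex g * (multHom _ hex k)⁻¹ := by
      rw [map_mul, map_inv]
    rw [multHom_apply, multHom_apply, multHom_apply, hkm, mul_inv_cancel] at h1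
    exact h1
  have hiso : (g * k⁻¹).1 ∈ Cfsg.isometryGroup F ⇑(plusQF m F) := by
    rw [mem_isometryGroup]
    intro v
    rw [multF_spec, hhm, Units.val_one, one_mul]
  have hSO : (⟨_, hiso⟩ : ↥(Cfsg.isometryGroup F ⇑(plusQF m F))) ∈
      Cfsg.specialIsometryGroup F ⇑(plusQF m F) := by
    rw [mem_specialIsometryGroup]
    rw [mem_SS_odd h2, hhm] at hhS
    simpa using hhS
  obtain ⟨e₀, he₀, hΩ⟩ := plus_SO_cover m hm σ hι h2 hodd ⟨_, hiso⟩ hSO
  have e1 : ofO _ (⟨_, hiso⟩ : ↥(Cfsg.isometryGroup F ⇑(plusQF m F))) = g * k⁻¹ :=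
    rfl
  rw [e1] at hΩ
  have e2 : conjPOmega ⇑(plusQF m F) g =
      conjPOmega _ (g * k⁻¹ * mapSim hr e₀) * conjPOmega _ (mapSim hr (e₀⁻¹ * δ₀)) := by
    have h1 : conjPOmega ⇑(plusQF m F) (scalSimil _ ν) = 1 :=
      scal_mem_ker _ hQ hn ν
    have h3 : conjPOmega ⇑(plusQF m F) k = conjPOmega _ (mapSim hr δ₀) := by
      rw [hk, map_mul, h1, one_mul]
    simp only [map_mul, map_inv, h3]
    group
  rw [e2]
  refine mul_mem (Subgroup.mem_sup_left ?_) (Subgroup.mem_sup_right ?_)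
  · rw [inn_eq']
    exact ⟨_, hΩ, rfl⟩
  · rw [inf_comm]
    exact (plus_cent_iff m hm σ hι _).2 ⟨_, mul_mem (inv_mem he₀) hδS, rfl⟩

end Cfsg.Agent.Lib.Helper71.PF
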